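import Cfsg.Agent.Screen.CosetEnum.Table

/-!
# Groups presented by word lists, and the order bound from a chain of coset tables
-/

set_option autoImplicit false

namespace Cfsg.Agent.Chars.Fi22O7

open Cfsg.Agent.Screen.CosetEnum

/-- The free generators, numbered. -/
def fgen (n x : ℕ) : FreeGroup (Fin n) := if h : x < n then FreeGroup.of ⟨x, h⟩ else 1

/-- The relators of a word list. -/
def wRels (n : ℕ) (ws : List (List ℕ)) : Set (FreeGroup (Fin n)) :=
  {r | ∃ w ∈ ws, r = evalW (fgen n) w}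

/-- The group presented by a word list. -/
abbrev WGroup (n : ℕ) (ws : List (List ℕ)) : Type := PresentedGroup (wRels n ws)

/-- Its generators, numbered. -/
def wgen (n : ℕ) (ws : List (List ℕ)) (x : ℕ) : WGroup n ws := PresentedGroup.mk _ (fgen n x)

theorem map_evalW {G K : Type*} [Group G] [Group K] (φ : G →* K) (g : ℕ → G) :
    ∀ w : List ℕ, φ (evalW g w) = evalW (fun x => φ (g x)) w
  | [] => map_one φ
  | a :: w => by rw [evalW, evalW, map_mul, map_evalW φ g w]

theorem wgen_out {n : ℕ} {ws : List (List ℕ)} (x : ℕ) (hx : n ≤ x) : wgen n ws x = 1 := by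
  simp [wgen, fgen, Nat.not_lt.2 hx]

theorem wgen_rels {n : ℕ} {ws : List (List ℕ)} : ∀ w ∈ ws, evalW (wgen n ws) w = 1 := by
  intro w hw
  have h : PresentedGroup.mk (wRels n ws) (evalW (fgen n) w) = 1 :=
    PresentedGroup.one_of_mem ⟨w, hw, rfl⟩
  rwa [map_evalW] at h

theorem wgen_of {n : ℕ} {ws : List (List ℕ)} (x : Fin n) :
    wgen n ws x = PresentedGroup.of x := by
  simp [wgen, fgen, x.isLt, PresentedGroup.of]

theorem wgen_top {n : ℕ} {ws : List (List ℕ)} : Subgroup.closure (Set.range (wgen n ws)) = ⊤ := by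
  rw [eq_top_iff, ← PresentedGroup.closure_range_of]
  exact Subgroup.closure_mono (by rintro _ ⟨x, rfl⟩; exact ⟨x.1, wgen_of x⟩)

theorem wgen_sq {n : ℕ} {ws : List (List ℕ)} (hsq : ∀ x < n, [x, x] ∈ ws) (x : ℕ) :
    wgen n ws x * wgen n ws x = 1 := by
  by_cases hx : x < n
  · simpa [evalW] using wgen_rels _ (hsq x hx)
  · rw [wgen_out x (by omega), one_mul]

theorem exists_whom {K : Type*} [Group K] (n : ℕ) (ws : List (List ℕ)) (g : ℕ → K)
    (hout : ∀ x, n ≤ x → g x = 1) (h : ∀ w ∈ ws, evalW g w = 1) :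
    ∃ φ : WGroup n ws →* K, ∀ x, φ (wgen n ws x) = g x := by
  have hlift : ∀ x, FreeGroup.lift (fun i : Fin n => g i) (fgen n x) = g x := by
    intro x
    by_cases hx : x < n
    · simp [fgen, hx]
    · simp [fgen, hx, hout x (by omega)]
  have hr : ∀ r ∈ wRels n ws, FreeGroup.lift (fun i : Fin n => g i) r = 1 := by
    rintro r ⟨w, hw, rfl⟩
    rw [map_evalW, funext hlift]
    exact h w hw
  exact ⟨PresentedGroup.toGroup hr, fun x => hlift x⟩

theorem range_le_closure {n : ℕ} {ws : List (List ℕ)} {K : Type*} [Group K] (φ : WGroup n ws →* K) :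
    φ.range = Subgroup.closure (Set.range fun x => φ (wgen n ws x)) := by
  rw [MonoidHom.range_eq_map, ← wgen_top, MonoidHom.map_closure, ← Set.range_comp]
  rfl

/-- The group of a checked table has the cosets of the table. -/
theorem index_eq {T : Tab} (hT : T.Checked) (hsq : ∀ x < T.ng, [x, x] ∈ T.rels) :
    (Subgroup.closure {g | ∃ w ∈ T.subs, g = evalW (wgen T.ng T.rels) w}).index = T.n := by
  obtain ⟨f, hf⟩ := exists_whom T.ng T.rels hT.perm
    (fun x hx => by simp [Tab.Checked.perm, Nat.not_lt.2 hx]) hT.perm_rel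
  obtain ⟨e, -, -⟩ := hT.exists_equiv (wgen T.ng T.rels) (wgen_sq hsq) wgen_out wgen_rels wgen_top _ rfl f
    (fun x _ => hf x)
  exact (Nat.card_congr e.symm).trans (Nat.card_fin _)

theorem bound_bot {T : Tab} (hT : T.Checked) (hsq : ∀ x < T.ng, [x, x] ∈ T.rels) (hs : T.subs = []) :
    Nat.card (WGroup T.ng T.rels) = T.n := by
  rw [← index_eq hT hsq, hs]
  simp

/-- One step of the chain. -/
theorem bound_step {T : Tab} (hT : T.Checked) (hsq : ∀ x < T.ng, [x, x] ∈ T.rels)
    {m : ℕ} {ws : List (List ℕ)} [Finite (WGroup m ws)]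
    (hrel : ∀ w ∈ ws, w ∈ T.rels ∨ w.reverse ∈ T.rels) (hlet : ∀ w ∈ ws, ∀ x ∈ w, x < m)
    (hsub : ∀ w ∈ T.subs, ∀ x ∈ w, x < m) {N : ℕ} (hN : Nat.card (WGroup m ws) ≤ N) :
    Finite (WGroup T.ng T.rels) ∧ Nat.card (WGroup T.ng T.rels) ≤ T.n * N := by
  set G := WGroup T.ng T.rels
  set H : Subgroup G := Subgroup.closure {g | ∃ w ∈ T.subs, g = evalW (wgen T.ng T.rels) w} with hH
  let g : ℕ → G := fun x => if x < m then wgen T.ng T.rels x else 1
  have hg : ∀ w ∈ ws, evalW g w = 1 ∨ ∃ x ∈ w, m ≤ x := by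
    intro w hw
    by_cases hl : ∃ x ∈ w, m ≤ x
    · exact Or.inr hl
    push Not at hl
    refine Or.inl ?_
    have he : ∀ v : List ℕ, (∀ x ∈ v, x < m) → evalW g v = evalW (wgen T.ng T.rels) v := by
      intro v
      induction v with
      | nil => intro _; rfl
      | cons a v ih =>
        intro hv
        rw [evalW, evalW, ih fun x hx => hv x (List.mem_cons_of_mem _ hx)]
        simp [g, hv a List.mem_cons_self]
    rw [he w hl]
    rcases hrel w hw with h | h
    · exact wgen_rels w h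
    · have h1 := wgen_rels (n := T.ng) _ h
      rw [evalW_reverse (wgen_sq hsq)] at h1
      exact inv_eq_one.1 h1
  obtain ⟨φ, hφ⟩ : ∃ φ : WGroup m ws →* G, ∀ x < m, φ (wgen m ws x) = wgen T.ng T.rels x := by
    have hlift : ∀ r ∈ wRels m ws, FreeGroup.lift (fun i : Fin m => wgen T.ng T.rels i) r = 1 := by
      rintro r ⟨w, hw, rfl⟩
      rw [map_evalW]
      have : ∀ x, FreeGroup.lift (fun i : Fin m => wgen T.ng T.rels i) (fgen m x) = g x := by
        intro x
        by_cases hx : x < m <;> simp [fgen, g, hx]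
      rw [funext this]
      rcases hg w hw with h | ⟨x, hxw, hx⟩
      · exact h
      · exact absurd hx (Nat.not_le.2 (hlet w hw x hxw))
    refine ⟨PresentedGroup.toGroup hlift, fun x hx => ?_⟩
    show FreeGroup.lift (fun i : Fin m => wgen T.ng T.rels i) (fgen m x) = _
    simp [fgen, hx]
  have hle : H ≤ φ.range := by
    rw [hH, Subgroup.closure_le]
    rintro _ ⟨w, hw, rfl⟩
    have hw' := hsub w hw
    clear hw
    induction w with
    | nil => exact one_mem _
    | cons a v ih =>
      exact mul_mem (ih fun x hx => hw' x (List.mem_cons_of_mem _ hx))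
        ⟨wgen m ws a, hφ a (hw' a List.mem_cons_self)⟩
  haveI : Finite φ.range := Finite.of_surjective φ.rangeRestrict φ.rangeRestrict_surjective
  have hHc : Nat.card H ≤ N :=
    ((Subgroup.card_le_of_le hle).trans
      (Nat.card_le_card_of_surjective φ.rangeRestrict φ.rangeRestrict_surjective)).trans hN
  haveI : Finite H := Finite.of_injective (Subgroup.inclusion hle) (Subgroup.inclusion_injective hle)
  have hidx : H.index = T.n := index_eq hT hsq
  have hcard : Nat.card G = Nat.card H * T.n := by rw [← hidx, Subgroup.card_mul_index]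
  refine ⟨Nat.finite_of_card_ne_zero ?_, ?_⟩
  · rw [hcard]
    exact Nat.mul_ne_zero Nat.card_pos.ne' hT.pos.ne'
  · rw [hcard, Nat.mul_comm]
    exact Nat.mul_le_mul_left _ hHc

end Cfsg.Agent.Chars.Fi22O7
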