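import Cfsg.Agent.Chars.Fi22O7.Base
import Cfsg.Agent.Chars.Fi22O7.P4.Checked
import Cfsg.Agent.Chars.Fi22O7.P6.Checked
import Cfsg.Agent.Chars.Fi22O7.P7.Checked
import Cfsg.Agent.Chars.Fi22O7.P8.Checked

/-!
# The presented group on eight generators has order at most 4585351680
-/

set_option autoImplicit false
set_option maxRecDepth 20000

namespace Cfsg.Agent.Chars.Fi22O7

open Cfsg.Agent.Screen.CosetEnum

/-- The group on `b, …, i`. -/
abbrev G8 : Type := WGroup 8 P8.tbl.rels

/-- Its generators. -/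
def g8 : ℕ → G8 := wgen 8 P8.tbl.rels

theorem sq8 : ∀ x < 8, [x, x] ∈ P8.tbl.rels := by decide +kernel

theorem g8_bound : Finite G8 ∧ Nat.card G8 ≤ 4585351680 := by
  have h4 : Nat.card (WGroup 4 P4.tbl.rels) = 120 := bound_bot P4.checked (by decide +kernel) rfl
  haveI : Finite (WGroup 4 P4.tbl.rels) := Nat.finite_of_card_ne_zero (by rw [h4]; norm_num)
  have h6 := bound_step (T := P6.tbl) P6.checked (by decide +kernel) (m := 4) (ws := P4.tbl.rels)
    (by decide +kernel) (by decide +kernel) (by decide +kernel) h4.le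
  haveI : Finite (WGroup 6 P6.tbl.rels) := h6.1
  have h7 := bound_step (T := P7.tbl) P7.checked (by decide +kernel) (m := 6) (ws := P6.tbl.rels)
    (by decide +kernel) (by decide +kernel) (by decide +kernel) h6.2
  haveI : Finite (WGroup 7 P7.tbl.rels) := h7.1
  have h8 := bound_step (T := P8.tbl) P8.checked sq8 (m := 7) (ws := P7.tbl.rels)
    (by decide +kernel) (by decide +kernel) (by decide +kernel) h7.2
  exact ⟨h8.1, h8.2.trans (le_of_eq (by decide +kernel))⟩

end Cfsg.Agent.Chars.Fi22O7
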