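import Cfsg.Prelude.Def_Classical
import Cfsg.Agent.Screen.CosetEnum.Orbit

/-!
# Reflections of the seven-dimensional orthogonal space over `ZMod 3`, in coded form
-/

set_option autoImplicit false
set_option maxRecDepth 20000

namespace Cfsg.Agent.Chars.Fi22O7

open Matrix Cfsg.Agent.Screen.CosetEnum

/-- The index type. -/
abbrev I7 : Type := Unit ⊕ (Fin 3 ⊕ Fin 3)

/-- The vectors. -/
abbrev V7 : Type := I7 → ZMod 3

/-- The form. -/
abbrev Q7 : V7 → ZMod 3 := Cfsg.quadFormOdd 3 (ZMod 3)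

/-- The isometry group. -/
abbrev O7 : Type := ↥(Cfsg.isometryGroup (ZMod 3) Q7)

theorem three_zero : (3 : ZMod 3) = 0 := by decide

/-- The polar covector. -/
def cov (v : V7) : V7
  | .inl _ => 2 * v (.inl ())
  | .inr (.inl i) => v (.inr (.inr i))
  | .inr (.inr i) => v (.inr (.inl i))

theorem Q7_add (t : ZMod 3) (u v : V7) :
    Q7 (u + t • v) = Q7 u + t * (cov v ⬝ᵥ u) + t ^ 2 * Q7 v := by
  simp [Q7, Cfsg.quadFormOdd, cov, dotProduct, Fintype.sum_sum_type, Fin.sum_univ_three]
  ring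

theorem Q7_neg (u : V7) : Q7 (-u) = Q7 u := by
  simp [Q7, Cfsg.quadFormOdd]

theorem cov_self (v : V7) : cov v ⬝ᵥ v = 2 * Q7 v := by
  simp [Q7, Cfsg.quadFormOdd, cov, dotProduct, Fintype.sum_sum_type, Fin.sum_univ_three]
  ring

/-- The matrix of the negated reflection. -/
def rMat (v : V7) : Matrix I7 I7 (ZMod 3) := -(1 + vecMulVec v (cov v))

theorem rMat_mulVec (v u : V7) : rMat v *ᵥ u = -(u + (cov v ⬝ᵥ u) • v) := by
  rw [rMat, neg_mulVec, add_mulVec, one_mulVec]
  congr 2
  ext i
  simp [mulVec, dotProduct, vecMulVec, mul_add, Finset.mul_sum, mul_comm, mul_left_comm]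

theorem rMat_sq (v : V7) (hv : Q7 v = 2) : rMat v * rMat v = 1 := by
  apply ext_of_mulVec_single
  intro i
  generalize (Pi.single i (1 : ZMod 3) : V7) = u
  rw [← mulVec_mulVec, one_mulVec, rMat_mulVec, rMat_mulVec, dotProduct_neg, dotProduct_add,
    dotProduct_smul, cov_self, hv, smul_eq_mul]
  ext j
  simp only [Pi.neg_apply, Pi.add_apply, Pi.smul_apply, smul_eq_mul]
  linear_combination (2 * ((cov v ⬝ᵥ u) * v j)) * three_zero

theorem rMat_preserves (v : V7) (hv : Q7 v = 2) (u : V7) : Q7 (rMat v *ᵥ u) = Q7 u := by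
  rw [rMat_mulVec, Q7_neg, Q7_add, hv]
  linear_combination (cov v ⬝ᵥ u) ^ 2 * three_zero

/-- The isometry attached to `v` (trivial unless `Q v = 2`). -/
def refl (v : V7) : O7 :=
  if hv : Q7 v = 2 then
    ⟨⟨rMat v, rMat v, rMat_sq v hv, rMat_sq v hv⟩, fun u _ => rMat_preserves v hv u⟩
  else 1

/-- The matrix of an isometry. -/
def mat (g : O7) : Matrix I7 I7 (ZMod 3) := ((g : Matrix.GeneralLinearGroup I7 (ZMod 3)) : Matrix I7 I7 (ZMod 3))

theorem mat_refl {v : V7} (hv : Q7 v = 2) : mat (refl v) = rMat v := by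
  simp [refl, hv, mat]

theorem mat_mul (g h : O7) : mat (g * h) = mat g * mat h := rfl

theorem mat_one : mat (1 : O7) = 1 := rfl

theorem O7_ext {g h : O7} (e : ∀ u, mat g *ᵥ u = mat h *ᵥ u) : g = h :=
  Subtype.ext (Units.ext (ext_of_mulVec_single fun i => e _))

theorem mat_Q (g : O7) (u : V7) : Q7 (mat g *ᵥ u) = Q7 u := g.2 u u

theorem refl_mul_self (v : V7) : refl v * refl v = 1 := by
  by_cases hv : Q7 v = 2
  · exact Subtype.ext (Units.ext (show mat (refl v) * mat (refl v) = 1 by rw [mat_refl hv, rMat_sq v hv]))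
  · simp [refl, hv]

theorem refl_neg (v : V7) : refl (-v) = refl v := by
  by_cases hv : Q7 v = 2
  · refine O7_ext fun u => ?_
    rw [mat_refl hv, mat_refl ((Q7_neg v).trans hv), rMat_mulVec, rMat_mulVec]
    have : cov (-v) = -cov v := by
      ext (_ | _ | _) <;> simp [cov]
    rw [this, neg_dotProduct, neg_smul_neg]
  · simp [refl, hv, Q7_neg]

theorem cov_map (g : O7) (v u : V7) : cov (mat g *ᵥ v) ⬝ᵥ (mat g *ᵥ u) = cov v ⬝ᵥ u := by
  have h := mat_Q g (u + (1 : ZMod 3) • v)
  rw [mulVec_add, mulVec_smul, Q7_add, Q7_add, mat_Q, mat_Q] at h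
  linear_combination h

theorem mul_refl (g : O7) (v : V7) : g * refl v = refl (mat g *ᵥ v) * g := by
  by_cases hv : Q7 v = 2
  · refine O7_ext fun u => ?_
    rw [mat_mul, mat_mul, mat_refl hv, mat_refl ((mat_Q g v).trans hv), ← mulVec_mulVec, ← mulVec_mulVec,
      rMat_mulVec, rMat_mulVec, mulVec_neg, mulVec_add, mulVec_smul, cov_map]
  · simp [refl, hv, mat_Q]

/-! ### Coded vectors -/

/-- Coordinate number. -/
def pos : I7 → ℕ
  | .inl _ => 0
  | .inr (.inl i) => 1 + i.1
  | .inr (.inr i) => 4 + i.1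

/-- Digit. -/
def dig (s k : ℕ) : ℕ := s / 3 ^ k % 3

/-- Decode. -/
def dec (s : ℕ) : V7 := fun i => (dig s (pos i) : ZMod 3)

/-- Encode. -/
def enc (x : V7) : ℕ :=
  (x (.inl ())).val + 3 * (x (.inr (.inl 0))).val + 9 * (x (.inr (.inl 1))).val +
    27 * (x (.inr (.inl 2))).val + 81 * (x (.inr (.inr 0))).val + 243 * (x (.inr (.inr 1))).val +
      729 * (x (.inr (.inr 2))).val

theorem enc_lt (x : V7) : enc x < 2187 := by
  have h : ∀ i, (x i).val < 3 := fun i => ZMod.val_lt _
  have := h (.inl ()); have := h (.inr (.inl 0)); have := h (.inr (.inl 1)); have := h (.inr (.inl 2))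
  have := h (.inr (.inr 0)); have := h (.inr (.inr 1)); have := h (.inr (.inr 2))
  unfold enc; omega

theorem dec_enc (x : V7) : dec (enc x) = x := by
  have h : ∀ i, (x i).val < 3 := fun i => ZMod.val_lt _
  have := h (.inl ()); have := h (.inr (.inl 0)); have := h (.inr (.inl 1)); have := h (.inr (.inl 2))
  have := h (.inr (.inr 0)); have := h (.inr (.inr 1)); have := h (.inr (.inr 2))
  funext i
  rw [show x i = ((x i).val : ZMod 3) from (ZMod.natCast_zmod_val _).symm]
  show ((enc x / 3 ^ pos i % 3 : ℕ) : ZMod 3) = _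
  congr 1
  rcases i with u | i | i
  · obtain rfl : u = () := rfl
    simp [pos, enc]; omega
  all_goals (fin_cases i <;> simp [pos, enc] <;> omega)

/-- The coded form. -/
def qC (s : ℕ) : ℕ :=
  (dig s 0 * dig s 0 + dig s 1 * dig s 4 + dig s 2 * dig s 5 + dig s 3 * dig s 6) % 3

theorem qC_eq (s : ℕ) : Q7 (dec s) = (qC s : ZMod 3) := by
  simp [Q7, Cfsg.quadFormOdd, dec, pos, qC, Fin.sum_univ_three, ZMod.natCast_mod]
  ring

/-- The coded polar form. -/
def bC (v s : ℕ) : ℕ :=
  (2 * (dig v 0 * dig s 0) + dig v 4 * dig s 1 + dig v 5 * dig s 2 + dig v 6 * dig s 3 +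
    dig v 1 * dig s 4 + dig v 2 * dig s 5 + dig v 3 * dig s 6) % 3

theorem bC_eq (v s : ℕ) : (bC v s : ZMod 3) = cov (dec v) ⬝ᵥ dec s := by
  simp [cov, dotProduct, Fintype.sum_sum_type, Fin.sum_univ_three, dec, pos, bC, ZMod.natCast_mod]
  ring

/-- One digit of the image. -/
def dg (b v s k : ℕ) : ℕ := 2 * (dig s k + b * dig v k) % 3

/-- The image, given the value of the polar form. -/
def stepB (b v s : ℕ) : ℕ :=
  dg b v s 0 + 3 * dg b v s 1 + 9 * dg b v s 2 + 27 * dg b v s 3 + 81 * dg b v s 4 +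
    243 * dg b v s 5 + 729 * dg b v s 6

/-- The coded reflection. -/
def stepC (v s : ℕ) : ℕ := stepB (bC v s) v s

theorem dig_stepB (b v s k : ℕ) (hk : k < 7) : dig (stepB b v s) k = dg b v s k := by
  have h : ∀ j, dg b v s j < 3 := fun j => Nat.mod_lt _ (by norm_num)
  have := h 0; have := h 1; have := h 2; have := h 3; have := h 4; have := h 5; have := h 6
  unfold stepB
  generalize dg b v s = d at *
  interval_cases k <;> simp [dig] <;> omega

theorem pos_lt : ∀ i : I7, pos i < 7 := by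
  rintro (⟨⟩ | i | i) <;> simp [pos] <;> omega

theorem stepC_lt (v s : ℕ) : stepC v s < 2187 := by
  have h : ∀ j, dg (bC v s) v s j < 3 := fun j => Nat.mod_lt _ (by norm_num)
  have := h 0; have := h 1; have := h 2; have := h 3; have := h 4; have := h 5; have := h 6
  unfold stepC stepB; omega

theorem dec_stepC (v s : ℕ) : dec (stepC v s) = rMat (dec v) *ᵥ dec s := by
  funext i
  rw [rMat_mulVec, ← bC_eq]
  show ((dig (stepB (bC v s) v s) (pos i) : ℕ) : ZMod 3) = _
  rw [dig_stepB _ _ _ _ (pos_lt i), dg, ZMod.natCast_mod]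
  simp [dec]
  linear_combination ((dig s (pos i) : ZMod 3) + (bC v s : ZMod 3) * (dig v (pos i) : ZMod 3)) * three_zero

/-- The eight vectors. -/
def vecs : List ℕ := [336, 1728, 1485, 1953, 1324, 165, 522, 1083]

/-- The generators, numbered. -/
def rgen (x : ℕ) : O7 := if x < 8 then refl (dec (vecs.getD x 0)) else 1

theorem vecs_Q : ∀ x < 8, qC (vecs.getD x 0) = 2 := by decide +kernel

theorem rgen_mat {x : ℕ} (hx : x < 8) : mat (rgen x) = rMat (dec (vecs.getD x 0)) := by
  rw [rgen, if_pos hx, mat_refl]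
  rw [qC_eq, vecs_Q x hx]; rfl

/-- The action of a word, coded. -/
def appC : List ℕ → ℕ → ℕ
  | [], s => s
  | a :: w, s => force (stepC (vecs.getD a 0) s) fun t => appC w t

theorem appC_eq : ∀ (w : List ℕ), (∀ x ∈ w, x < 8) → ∀ s,
    mat (evalW rgen w) *ᵥ dec s = dec (appC w s)
  | [], _, s => by simp [evalW, appC, mat_one]
  | a :: w, hw, s => by
    rw [evalW, mat_mul, ← mulVec_mulVec, rgen_mat (hw a List.mem_cons_self), ← dec_stepC,
      appC_eq w (fun x hx => hw x (List.mem_cons_of_mem _ hx)), appC, force_eq]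

theorem single_eq : ∀ i : I7, (Pi.single i 1 : V7) = dec (3 ^ pos i) := by decide +kernel

theorem evalW_eq_one (w : List ℕ) (hw : ∀ x ∈ w, x < 8) (h : ∀ k < 7, appC w (3 ^ k) = 3 ^ k) :
    evalW rgen w = 1 :=
  Subtype.ext (Units.ext (ext_of_mulVec_single fun i => by
    show mat (evalW rgen w) *ᵥ _ = mat (1 : O7) *ᵥ _
    rw [single_eq, appC_eq w hw, h _ (pos_lt i), mat_one, one_mulVec]))

/-! ### All reflections lie in the subgroup generated by the eight -/

/-- The search chain: (generator, earlier member). -/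
def chain : List (ℕ × ℕ) :=
  [(1, 336), (2, 336), (0, 1212), (2, 1212), (3, 1212), (2, 1728), (3, 1728), (1, 1362),
    (3, 1362), (6, 1362), (1, 1971), (3, 1971), (4, 1971), (6, 1971), (3, 1914), (6, 1914),
    (4, 924), (6, 924), (7, 1680), (0, 1485), (3, 1485), (6, 1485), (2, 2016), (4, 2016),
    (6, 2016), (6, 1026), (7, 1260), (4, 1596), (6, 1596), (7, 840), (5, 1004), (6, 1004),
    (2, 1830), (7, 1830), (3, 783), (6, 783), (2, 549), (4, 549), (6, 549), (2, 1224),
    (7, 1224), (4, 1008), (6, 1008), (5, 1603), (6, 1603), (2, 801), (7, 801), (7, 1764),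
    (5, 2005), (6, 2005), (2, 1446), (7, 1446), (6, 2161), (2, 1717), (7, 1717), (1, 2148),
    (7, 2148), (2, 288), (4, 288), (6, 288), (2, 1719), (7, 1719), (4, 990), (5, 2126),
    (6, 2126), (7, 495), (7, 315), (5, 938), (6, 938), (2, 1494), (7, 1494), (6, 782),
    (2, 1145), (7, 1145), (7, 792), (6, 1082), (2, 1238), (7, 1238), (1, 1128), (7, 1128),
    (2, 1316), (7, 1316), (1, 536), (3, 536), (7, 536), (7, 588), (6, 2130), (4, 1953),
    (5, 1063), (6, 1063), (7, 261), (7, 522), (3, 361), (5, 361), (6, 985), (7, 856),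
    (6, 1878), (6, 1525), (2, 2044), (7, 2044), (7, 1503), (2, 1966), (7, 1966), (3, 640),
    (7, 640), (6, 1401), (2, 1873), (7, 1873), (1, 313), (3, 313), (7, 313), (7, 420),
    (6, 1065), (1, 469), (3, 469), (7, 469), (3, 772), (7, 772), (7, 1537), (6, 1660),
    (6, 1605), (3, 722), (5, 722), (6, 1970), (7, 1685), (6, 1317), (5, 1919), (7, 1529),
    (2, 989), (7, 989), (3, 443), (7, 443), (6, 1794), (3, 287), (7, 287), (7, 1406),
    (6, 1283), (1, 614), (3, 614), (7, 614), (3, 1535), (7, 1535), (7, 770), (6, 890),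
    (6, 942), (3, 1613), (7, 1613), (4, 848), (7, 848), (6, 968), (2, 311), (7, 311),
    (6, 350), (6, 1853), (2, 1149), (5, 1324), (7, 778), (4, 1246), (3, 562), (7, 562),
    (7, 1837), (6, 1753), (4, 1759), (7, 1759), (6, 1909), (6, 763), (3, 928), (7, 928),
    (4, 1693), (7, 1693), (6, 1582), (2, 538), (7, 538), (6, 661), (6, 1426), (2, 2046),
    (2, 694), (4, 694), (7, 694), (6, 583), (7, 506), (6, 1348), (6, 1240), (7, 1240),
    (6, 1885), (2, 454), (2, 1192), (3, 642), (4, 1763), (4, 1250), (7, 1250), (6, 1361),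
    (6, 1517), (7, 169), (6, 1595), (2, 1751), (2, 389), (4, 389), (7, 389), (6, 428),
    (7, 253), (6, 1931), (6, 1715), (7, 1715), (6, 1313), (2, 638), (2, 2060), (3, 447),
    (4, 1793), (6, 1793), (7, 1793), (7, 1981), (6, 1391), (2, 716), (6, 1336), (2, 2138),
    (7, 2003), (6, 611), (2, 872), (3, 2042), (1, 1358), (4, 1410), (7, 86), (6, 919),
    (2, 1285), (6, 2000), (2, 1441), (1, 1987), (4, 1396), (6, 1396), (7, 1396), (7, 1046),
    (6, 1807), (2, 376), (6, 1943), (2, 1114), (7, 1006), (6, 481), (2, 1651), (3, 1156),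
    (1, 1894), (4, 1839), (3, 1748), (6, 1748), (7, 1748), (7, 1162), (6, 403), (6, 215),
    (2, 1573), (3, 1078), (2, 1628), (1, 1816), (6, 2080), (2, 688), (1, 949), (3, 949),
    (4, 2119), (0, 1435), (5, 1247), (6, 1000), (2, 1829), (1, 1049), (2, 1234), (1, 1127),
    (0, 509), (3, 1279), (6, 1279), (7, 1279), (7, 2081), (6, 689), (6, 148), (2, 950),
    (3, 2120), (2, 814), (1, 1436), (6, 1163), (2, 404), (1, 1574), (3, 1574), (4, 1079),
    (0, 1817), (5, 1762), (6, 1513), (7, 1513), (7, 757), (6, 1552), (6, 1007), (2, 482),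
    (2, 355), (1, 1652), (3, 1652), (4, 1157), (1, 112), (3, 112), (0, 1895), (2, 1397),
    (1, 1808), (3, 1808), (0, 1115), (3, 1115), (4, 377), (5, 565), (2, 1712), (1, 2143),
    (0, 259), (1, 308), (3, 308), (0, 415), (6, 758), (7, 758), (7, 1514), (6, 917),
    (6, 2002), (2, 610), (2, 710), (1, 871), (3, 871), (4, 2041), (1, 224), (3, 224),
    (0, 1357), (2, 1792), (1, 1390), (3, 1390), (0, 2137), (3, 2137), (4, 715), (5, 284),
    (2, 1280), (7, 1280), (6, 656), (6, 329), (2, 1205), (2, 1714), (1, 1312), (3, 1312),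
    (1, 2114), (3, 2114), (0, 2059), (3, 2059), (4, 637), (5, 798), (0, 1871), (3, 1871),
    (1, 388), (3, 388), (0, 1930), (3, 1930), (4, 427), (3, 1828), (4, 1174), (5, 986),
    (1, 532), (3, 532), (0, 587), (0, 1531), (3, 1531), (2, 1747), (7, 1747), (6, 328),
    (6, 655), (2, 2074), (2, 1241), (1, 1886), (3, 1886), (1, 1057), (3, 1057), (0, 1193),
    (3, 1193), (4, 455), (5, 1506), (0, 1300), (3, 1300), (1, 695), (3, 695), (0, 1349),
    (3, 1349), (4, 584), (3, 1442), (4, 2105), (5, 1969), (1, 1045), (7, 1045), (6, 916),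
    (2, 121), (2, 241), (1, 1372), (3, 1372), (1, 539), (3, 539), (0, 1427), (3, 1427),
    (4, 662), (0, 598), (3, 598), (4, 94), (3, 1286), (4, 2183), (5, 804), (3, 907),
    (2, 1561), (0, 1694), (3, 1694), (4, 929), (3, 920), (2, 1583), (4, 1583), (5, 1528),
    (4, 1676), (5, 781), (0, 767), (3, 767), (3, 1103), (2, 533), (1, 1982), (7, 1982),
    (6, 1553), (2, 242), (2, 122), (1, 1907), (3, 1907), (1, 310), (3, 310), (0, 1852),
    (3, 1852), (4, 349), (0, 467), (3, 467), (4, 188), (3, 1750), (4, 1096), (5, 1500),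
    (3, 1562), (2, 908), (0, 847), (3, 847), (4, 1612), (3, 1594), (2, 967), (4, 967),
    (5, 779), (4, 838), (5, 1526), (0, 254), (7, 254), (6, 149), (2, 2075), (1, 1646),
    (3, 1646), (1, 824), (3, 824), (0, 179), (3, 179), (4, 683), (0, 769), (3, 769),
    (4, 1534), (3, 1516), (2, 889), (4, 889), (5, 2022), (3, 158), (2, 1457), (4, 1457),
    (5, 1266), (4, 760), (5, 501), (2, 1301), (6, 206), (3, 1249), (2, 613), (4, 613),
    (5, 668), (2, 1360), (4, 1360), (4, 1669), (5, 1967), (5, 2162), (3, 2176), (2, 307),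
    (2, 223), (6, 1711), (0, 505), (7, 505), (6, 214), (2, 1204), (1, 823), (3, 823),
    (1, 1645), (3, 1645), (0, 103), (3, 103), (4, 382), (0, 1538), (3, 1538), (4, 773),
    (3, 764), (2, 1661), (4, 1661), (5, 1011), (3, 205), (2, 1822), (4, 1822), (5, 1767),
    (4, 1520), (5, 264), (2, 1870), (6, 157), (5, 334), (5, 988), (5, 1081), (2, 709),
    (1, 1906), (3, 1906), (0, 2092), (3, 2092), (4, 1786), (0, 1186), (3, 1186), (4, 1384),
    (3, 412), (2, 2029), (4, 2029), (5, 1974), (3, 1838), (2, 314), (4, 314), (5, 2094),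
    (2, 1754), (4, 1754), (4, 959), (5, 552), (2, 2158), (4, 2158), (4, 1120), (6, 1120),
    (5, 1227), (5, 573), (5, 2062), (5, 1315), (5, 286), (2, 113), (6, 1235), (2, 356),
    (1, 1373), (3, 1373), (0, 1187), (3, 1187), (4, 1385), (0, 2093), (3, 2093), (4, 1787),
    (3, 572), (2, 1142), (4, 1142), (5, 1032), (4, 535), (5, 1182), (4, 1282), (4, 1591),
    (5, 294), (2, 1121), (4, 1121), (4, 2159), (6, 2159), (5, 1725), (5, 408), (3, 1058),
    (3, 104), (4, 383), (3, 1244), (2, 197), (4, 197), (5, 1734), (3, 1757), (2, 140),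
    (4, 140), (5, 192), (2, 833), (4, 833), (4, 440), (6, 440), (5, 1491), (4, 442),
    (4, 1237), (5, 1641), (4, 1984), (5, 201), (3, 996), (5, 996), (4, 1823), (5, 1632),
    (5, 321), (6, 321), (3, 2113), (3, 178), (4, 682), (3, 1756), (2, 139), (4, 139),
    (5, 1272), (3, 1243), (2, 196), (4, 196), (5, 141), (2, 1636), (4, 1636), (4, 625),
    (6, 625), (5, 786), (3, 1956), (4, 1456), (5, 834), (5, 525), (6, 525), (4, 187),
    (2, 1141), (4, 1141), (5, 1545), (2, 559), (4, 559), (4, 1543), (6, 1543), (5, 1731),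
    (2, 280), (4, 280), (4, 898), (6, 898), (5, 1788), (4, 232), (5, 1122), (3, 1488),
    (5, 1488), (6, 1488), (3, 123), (3, 1563), (5, 993), (5, 132), (6, 603), (4, 95),
    (2, 2030), (4, 2030), (5, 894), (2, 281), (4, 281), (4, 899), (6, 899), (5, 1275),
    (2, 560), (4, 1544), (6, 1544), (4, 131), (3, 789), (5, 789), (6, 789), (5, 228),
    (6, 477), (5, 1416), (4, 626), (5, 435), (1, 983), (4, 983), (6, 983), (5, 873),
    (3, 1977), (5, 1977), (6, 1977), (4, 1964), (3, 678), (5, 678), (6, 678), (3, 1452),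
    (5, 1452), (5, 555), (6, 555), (6, 945), (5, 1860), (4, 439), (5, 627), (1, 1963),
    (4, 1963), (6, 1963), (5, 1665), (3, 1029), (5, 1029), (6, 1029), (6, 384), (6, 291),
    (6, 1566), (3, 2031), (5, 2031), (4, 775), (3, 963), (5, 963), (6, 963), (5, 2019),
    (6, 2019), (6, 1107), (6, 1374), (6, 462), (6, 369)]

/-- Grow the set along a chain. -/
def growC : List (ℕ × ℕ) → ℕ → Option ℕ
  | [], S => some S
  | (g, p) :: l, S =>
    bif bit S p && Nat.blt g 8 then
      force (addBit S (stepC (vecs.getD g 0) p)) fun S' => growC l S'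
    else none

/-- Negation, coded. -/
def negC (s : ℕ) : ℕ := stepB 0 0 s

/-- Every vector of norm 2 is, up to sign, in the set. -/
def coverGo (S : ℕ) : ℕ → Bool
  | 0 => true
  | s + 1 => (!(Nat.beq (qC s) 2) || bit S s || bit S (negC s)) && coverGo S s

theorem cover_ok : (growC chain (addBit 0 336)).any (fun S => coverGo S 2187) = true := by
  decide +kernel

theorem exists_of_any {o : Option ℕ} {f : ℕ → Bool} (h : o.any f = true) :
    ∃ S, o = some S ∧ f S = true := by
  cases o with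
  | none => simp at h
  | some S => exact ⟨S, rfl, by simpa using h⟩

theorem exists_cover : ∃ S, growC chain (addBit 0 336) = some S ∧ coverGo S 2187 = true :=
  exists_of_any cover_ok

attribute [irreducible] chain

theorem coverGo_spec {S : ℕ} : ∀ {k}, coverGo S k = true → ∀ s < k, qC s = 2 →
    bit S s = true ∨ bit S (negC s) = true
  | 0, _, s, hs => absurd hs (Nat.not_lt_zero s)
  | k + 1, h, s, hs => by
    simp only [coverGo, Bool.and_eq_true, Bool.or_eq_true] at h
    rcases Nat.lt_or_ge s k with hs' | hs'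
    · exact coverGo_spec h.2 s hs'
    · obtain rfl : s = k := by omega
      intro hq
      rcases h.1 with (h1 | h1) | h1
      · rw [hq] at h1; exact absurd h1 (by decide)
      · exact Or.inl h1
      · exact Or.inr h1

theorem dec_negC (s : ℕ) : dec (negC s) = -dec s := by
  funext i
  show ((dig (stepB 0 0 s) (pos i) : ℕ) : ZMod 3) = _
  rw [dig_stepB _ _ _ _ (pos_lt i), dg, ZMod.natCast_mod]
  simp [dec]
  linear_combination (dig s (pos i) : ZMod 3) * three_zero

theorem refl_mem (v : V7) : refl v ∈ Subgroup.closure (Set.range rgen) := by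
  set K := Subgroup.closure (Set.range rgen)
  by_cases hv : Q7 v = 2
  swap
  · simp [refl, hv]
  have hgen : ∀ x, rgen x ∈ K := fun x => Subgroup.subset_closure ⟨x, rfl⟩
  have hgrow : ∀ (l : List (ℕ × ℕ)) (S S' : ℕ), growC l S = some S' →
      (∀ s, bit S s = true → refl (dec s) ∈ K) → ∀ s, bit S' s = true → refl (dec s) ∈ K := by
    intro l
    induction l with
    | nil => intro S S' h hS; simp only [growC, Option.some.injEq] at h; exact h ▸ hS
    | cons a l ih =>
      obtain ⟨g, p⟩ := a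
      intro S S' h hS
      unfold growC at h
      simp only [force_eq] at h
      cases hb : (bit S p && Nat.blt g 8) with
      | false => simp [hb] at h
      | true =>
        simp only [hb, cond_true] at h
        simp only [Bool.and_eq_true, Nat.blt_eq] at hb
        refine ih _ _ h fun s hs => ?_
        rw [bit_addBit, Bool.or_eq_true, decide_eq_true_iff] at hs
        rcases hs with hs | rfl
        · exact hS s hs
        rw [dec_stepC, ← rgen_mat hb.2, ← mul_inv_eq_iff_eq_mul.2 (mul_refl (rgen g) (dec p))]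
        exact mul_mem (mul_mem (hgen g) (hS p hb.1)) (inv_mem (hgen g))
  obtain ⟨S, hS, hc⟩ := exists_cover
  have hall := hgrow chain _ _ hS (fun s hs => by
    rw [bit_addBit, bit_eq, Nat.zero_testBit, Bool.false_or, decide_eq_true_iff] at hs
    subst hs
    simpa [rgen, vecs] using hgen 0)
  have hq : qC (enc v) = 2 := by
    have h1 : ((qC (enc v) : ℕ) : ZMod 3) = 2 := by rw [← qC_eq, dec_enc, hv]
    have h2 : qC (enc v) < 3 := Nat.mod_lt _ (by norm_num)
    have h3 := congrArg ZMod.val h1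
    rwa [ZMod.val_natCast_of_lt h2] at h3
  rcases coverGo_spec hc (enc v) (enc_lt v) hq with h | h
  · simpa [dec_enc] using hall _ h
  · simpa [dec_negC, dec_enc, refl_neg] using hall _ h

theorem closure_rgen_normal : (Subgroup.closure (Set.range rgen)).Normal := by
  constructor
  intro n hn h
  induction hn using Subgroup.closure_induction with
  | mem y hy =>
    obtain ⟨x, rfl⟩ := hy
    by_cases hx : x < 8
    · rw [rgen, if_pos hx, mul_refl, mul_inv_cancel_right]
      exact refl_mem _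
    · simp [rgen, hx]
  | one => simp
  | mul a b _ _ ha hb => simpa [mul_assoc] using mul_mem ha hb
  | inv a _ ha => simpa [mul_assoc] using inv_mem ha

end Cfsg.Agent.Chars.Fi22O7
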