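import Cfsg.Agent.Chars.Fi22O7.Bound
import Cfsg.Agent.Chars.Fi22O7.Refl
import Cfsg.Agent.S0292
import Cfsg.Agent.S0295

/-!
# The presented group is `PΩ(7, 3)`
-/

set_option autoImplicit false
set_option maxRecDepth 20000

namespace Cfsg.Agent.Chars.Fi22O7

open Cfsg.Agent.Screen.CosetEnum Matrix

theorem g8_perfect : commutator G8 = ⊤ := by
  rw [eq_top_iff, ← wgen_top, Subgroup.closure_le]
  rintro _ ⟨x, rfl⟩
  rw [SetLike.mem_coe, ← Abelianization.ker_of, MonoidHom.mem_ker]
  let a : ℕ → Abelianization G8 := fun x => Abelianization.of (g8 x)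
  have hr : ∀ w ∈ P8.tbl.rels, evalW a w = 1 := fun w hw => by
    have h := congrArg (Abelianization.of (G := G8)) (wgen_rels (n := 8) w hw)
    rwa [map_evalW, map_one] at h
  have h2 : ∀ x < 8, a x * a x = 1 := fun x hx => by simpa [evalW] using hr _ (sq8 x hx)
  have edge : ∀ x < 8, ∀ y < 8, [y, x, y, x, y, x] ∈ P8.tbl.rels → a y = a x := by
    intro x hx y hy hm
    have h := hr _ hm
    simp only [evalW, one_mul] at h
    have h' : (a x * a y) * ((a x * a x) * (a y * a y)) = 1 := by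
      rw [← h]; simp [mul_comm, mul_assoc, mul_left_comm]
    rw [h2 x hx, h2 y hy, one_mul, mul_one] at h'
    calc a y = a x * a x * a y := by rw [h2 x hx, one_mul]
      _ = a x := by rw [mul_assoc, h', mul_one]
  have e1 := edge 0 (by norm_num) 1 (by norm_num) (by decide +kernel)
  have e2 := (edge 1 (by norm_num) 2 (by norm_num) (by decide +kernel)).trans e1
  have e3 := (edge 2 (by norm_num) 3 (by norm_num) (by decide +kernel)).trans e2
  have e4 := (edge 3 (by norm_num) 4 (by norm_num) (by decide +kernel)).trans e3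
  have e5 := (edge 4 (by norm_num) 5 (by norm_num) (by decide +kernel)).trans e4
  have e6 := (edge 2 (by norm_num) 6 (by norm_num) (by decide +kernel)).trans e2
  have e7 := (edge 6 (by norm_num) 7 (by norm_num) (by decide +kernel)).trans e6
  have h9 := hr [0, 1, 2, 3, 4, 5, 6, 0, 1, 2, 3, 4, 5, 6, 0, 1, 2, 3, 4, 5, 6, 0, 1, 2, 3, 4, 5, 6, 0,
    1, 2, 3, 4, 5, 6, 0, 1, 2, 3, 4, 5, 6, 0, 1, 2, 3, 4, 5, 6, 0, 1, 2, 3, 4, 5, 6, 0, 1, 2, 3, 4, 5, 6]
    (by decide +kernel)
  have hcancel : ∀ z, a 0 * (a 0 * z) = z := fun z => by rw [← mul_assoc, h2 0 (by norm_num), one_mul]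
  simp only [evalW, one_mul, mul_assoc, e1, e2, e3, e4, e5, e6, hcancel] at h9
  show a x = 1
  by_cases hx : x < 8
  · interval_cases x <;> simp [e1, e2, e3, e4, e5, e6, e7, h9]
  · simp only [a, g8]
    rw [wgen_out x (by omega), map_one]

theorem rels_ok : ∀ w ∈ P8.tbl.rels, ∀ k < 7, appC w (3 ^ k) = 3 ^ k := by decide +kernel

theorem rgen_zero_ne : rgen 0 ≠ 1 := by
  intro h
  have h1 := appC_eq [0] (by simp) (3 ^ 0)
  rw [show evalW rgen [0] = rgen 0 by simp [evalW], h, mat_one, one_mulVec] at h1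
  exact (show dec (3 ^ 0) ≠ dec (appC [0] (3 ^ 0)) by decide +kernel) h1

attribute [local irreducible] rgen refl

theorem card_PO7 : Nat.card (Cfsg.POmega (ZMod 3) Q7) = 4585351680 := by
  have h := Cfsg.Agent.S0292.result (F := ZMod 3) (ZMod.card 3) (by decide) 3 le_rfl
  simp [Finset.prod_range_succ] at h
  show Nat.card (Cfsg.POmega (ZMod 3) (Cfsg.quadFormOdd 3 (ZMod 3))) = _
  omega

theorem simple_PO7 : IsSimpleGroup (Cfsg.POmega (ZMod 3) Q7) :=
  Cfsg.Agent.S0295.result (F := ZMod 3) (by rw [ZMod.card]; decide) 3 le_rfl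

theorem exists_iso : Nonempty (G8 ≃* Cfsg.POmega (ZMod 3) Q7) := by
  obtain ⟨φ, hφ⟩ := exists_whom 8 P8.tbl.rels rgen (fun x hx => by simp [rgen, Nat.not_lt.2 hx])
    (fun w hw => evalW_eq_one w (P8.checked.letters (Or.inl hw)) (rels_ok w hw))
  have hrange : φ.range = Subgroup.closure (Set.range rgen) := by
    rw [range_le_closure φ]; simp only [hφ]
  have hle : ∀ g, φ g ∈ Cfsg.Omega (ZMod 3) Q7 := fun g => by
    have h : φ g ∈ (commutator G8).map φ := Subgroup.mem_map_of_mem _ (by rw [g8_perfect]; trivial)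
    rw [commutator_def, Subgroup.map_commutator] at h
    exact Subgroup.commutator_mono le_top le_top h
  let φ' : G8 →* Cfsg.Omega (ZMod 3) Q7 := φ.codRestrict _ hle
  have hn : φ'.range.Normal := by
    have hN : φ.range.Normal := by rw [hrange]; exact closure_rgen_normal
    have : φ'.range = φ.range.comap (Cfsg.Omega (ZMod 3) Q7).subtype := by
      ext y
      constructor
      · rintro ⟨g, rfl⟩; exact ⟨g, rfl⟩
      · rintro ⟨g, hg⟩; exact ⟨g, Subtype.ext hg⟩
    rw [this]
    exact hN.comap _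
  let π := QuotientGroup.mk' (Subgroup.center (Cfsg.Omega (ZMod 3) Q7))
  let ψ := π.comp φ'
  have hψn : ψ.range.Normal := by
    rw [MonoidHom.range_comp]
    exact hn.map π (QuotientGroup.mk'_surjective _)
  haveI := simple_PO7
  have htop : ψ.range = ⊤ := by
    refine hψn.eq_bot_or_eq_top.resolve_left fun hbot => rgen_zero_ne ?_
    have hc : ∀ g, φ' g ∈ Subgroup.center (Cfsg.Omega (ZMod 3) Q7) := fun g => by
      have : ψ g ∈ ψ.range := ⟨g, rfl⟩
      rw [hbot, Subgroup.mem_bot] at this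
      exact (QuotientGroup.eq_one_iff _).1 this
    have hle' : commutator G8 ≤ φ'.ker := by
      rw [commutator_def, Subgroup.commutator_le]
      intro x _ y _
      rw [MonoidHom.mem_ker, map_commutatorElement, commutatorElement_eq_one_iff_mul_comm]
      exact Subgroup.mem_center_iff.1 (hc y) _
    have h1 : φ' (g8 0) = 1 := MonoidHom.mem_ker.1 (hle' (by rw [g8_perfect]; trivial))
    have h2 : φ (g8 0) = 1 := congrArg Subtype.val h1
    rw [← hφ 0]
    exact h2
  haveI : Finite G8 := g8_bound.1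
  have hsur : Function.Surjective ψ := MonoidHom.range_eq_top.1 htop
  exact ⟨MulEquiv.ofBijective ψ (hsur.bijective_of_nat_card_le (g8_bound.2.trans card_PO7.ge))⟩

end Cfsg.Agent.Chars.Fi22O7
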